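import Cfsg.Agent.H6.G24.Tab0

set_option autoImplicit false
set_option maxRecDepth 100000
set_option Elab.async false

namespace Cfsg.H6.G24

theorem p0 : allR (ptU img) 0 416 = true := by decide +kernel

theorem q0_0 : allR (ivl img Ws 1 101) 1 100 = true := by decide +kernel

theorem q1_0 : allR (ivl img Ws 101 416) 101 315 = true := by decide +kernel

end Cfsg.H6.G24
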