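import Cfsg.Agent.H6.G24.Rep
import Cfsg.Agent.H6.G24.C1.Main
import Cfsg.Agent.H6.G24.C2.Main
import Cfsg.Agent.H6.G24.C3.Main
import Cfsg.Agent.H6.G24.C4.Main

set_option autoImplicit false
set_option maxRecDepth 100000
set_option Elab.async false

namespace Cfsg.H6.G24

theorem cover : Cover (gen ev Ws) ⊤ 416 := hX ▸ C1.cover hev hR

theorem ub : UB (⊤ : Subgroup Grp) 251596800 :=
  (((UB.bot.cover (C4.cover hev hR)).cover (C3.cover hev hR)).cover (C2.cover hev hR)).cover cover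

def I : List Ivl := [(1, 101, [6,2,3,4,3,2,6]), (101, 416, [6])]

theorem act : ∃ φ : Grp →* Equiv.Perm ℕ, IsAct φ ev img 416 7 := by
  obtain ⟨ψ, hψ⟩ := lift rep.1 rep.2.1
  exact ⟨_, rep.2.2.comp ψ hψ⟩

/-- The permutation representation. -/
noncomputable def φ : Grp →* Equiv.Perm ℕ := act.choose

theorem hφ : IsAct φ ev img 416 7 := act.choose_spec

theorem prim : Prim φ ev (gen ev Ws) 416 I :=
  prim_sound hφ cover (List.forall_mem_cons.mpr ⟨iv0 hφ, (List.forall_mem_cons.mpr ⟨iv1 hφ, (by simp)⟩)⟩) (by decide +kernel)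

theorem coatom : IsCoatom (gen ev Ws) :=
  prim.isCoatom hφ hX (C := [[], [0,4,0,1,2,1,2], [0]]) (by decide +kernel)

def lW0 : List (List ℕ) := [[nat_lit 2], [nat_lit 3], [nat_lit 4, nat_lit 3, nat_lit 2, nat_lit 1]]

theorem l0 : lvlChk img 416 7 [1,0] (4, lW0, unp 35 (nat_lit 0x5f0200003601000036000000530200005501000055000000190200006301000064000000560200004c0100003c0000003a0200002a0100002a0000003002000031020000410100003e010000300000002e0100003e0000004e0200003d0100003d0000000c0200001801000024000000080200000c010000070000000902000010010000190000000402)) = true := by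
  decide +kernel

def lW1 : List (List ℕ) := [[nat_lit 2], [nat_lit 3], [nat_lit 1, nat_lit 2, nat_lit 1, nat_lit 2, nat_lit 3, nat_lit 4, nat_lit 3, nat_lit 4, nat_lit 5, nat_lit 4, nat_lit 3, nat_lit 4, nat_lit 5, nat_lit 2, nat_lit 1, nat_lit 2, nat_lit 1]]

theorem l1 : lvlChk img 416 7 [4,1,0] (9, lW1, unp 6 (nat_lit 0x560200004c0100003c00000019020000100000000901)) = true := by
  decide +kernel

def lW2 : List (List ℕ) := [[nat_lit 1, nat_lit 2, nat_lit 1, nat_lit 2, nat_lit 3, nat_lit 4, nat_lit 3, nat_lit 4, nat_lit 5, nat_lit 4, nat_lit 3, nat_lit 4, nat_lit 5, nat_lit 2, nat_lit 1, nat_lit 2, nat_lit 1], [nat_lit 1, nat_lit 3, nat_lit 2, nat_lit 4, nat_lit 5, nat_lit 4, nat_lit 3, nat_lit 2, nat_lit 4, nat_lit 3, nat_lit 2, nat_lit 4, nat_lit 5, nat_lit 1, nat_lit 2, nat_lit 3, nat_lit 4, nat_lit 3, nat_lit 4, nat_lit 5, nat_lit 2, nat_lit 1]]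

theorem l2 : lvlChk img 416 7 [9,4,1,0] (3, lW2, unp 2 (nat_lit 0x400000000301)) = true := by
  decide +kernel

def lW3 : List (List ℕ) := [[nat_lit 1, nat_lit 2, nat_lit 1, nat_lit 2, nat_lit 3, nat_lit 4, nat_lit 3, nat_lit 4, nat_lit 5, nat_lit 4, nat_lit 3, nat_lit 4, nat_lit 5, nat_lit 2, nat_lit 1, nat_lit 2, nat_lit 1]]

theorem l3 : lvlChk img 416 7 [3,9,4,1,0] (43, lW3, unp 1 (nat_lit 0x2b00)) = true := by
  decide +kernel

def lW4 : List (List ℕ) := [[nat_lit 2]]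

theorem l4 : lvlChk img 416 7 [43,3,9,4,1,0] (24, lW4, unp 1 (nat_lit 0x1800)) = true := by
  decide +kernel

def lW5 : List (List ℕ) := [[nat_lit 3, nat_lit 4, nat_lit 5, nat_lit 4, nat_lit 3, nat_lit 4, nat_lit 3, nat_lit 2, nat_lit 1, nat_lit 2, nat_lit 3, nat_lit 4, nat_lit 3, nat_lit 5, nat_lit 4, nat_lit 2, nat_lit 3, nat_lit 4, nat_lit 5, nat_lit 2, nat_lit 3, nat_lit 4, nat_lit 3, nat_lit 1, nat_lit 2, nat_lit 1]]

theorem l5 : lvlChk img 416 7 [24,43,3,9,4,1,0] (2, lW5, unp 1 (nat_lit 0x200)) = true := by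
  decide +kernel

theorem finite : Finite Grp := ub.top.1

def bs : List ℕ := [2,24,43,3,9,4,1,0]

theorem lb : LBn φ ⊤ 416 bs 251596800 := by
  have := finite
  exact LBn.cast (((((((prim.lb2 (e := I.head (by decide)) (List.head_mem _)).stepT hφ l0).stepT hφ l1).stepT hφ l2).stepT hφ l3).stepT hφ l4).stepT hφ l5) (by decide +kernel)

theorem main : Nat.card Grp = 251596800 ∧ fixS φ bs = ⊥ ∧ Oracle ev img 7 bs := by
  have := finite
  exact lb.oracle hφ ub.top.2

theorem normal (N : Subgroup Grp) [N.Normal] (hN : N ≠ ⊥) :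
    ∀ t ∈ ([[1], [2], [3], [4], [5], [6]] : List (List ℕ)), evL ev t ∈ N := by
  have := finite
  exact prim.normal_contains hev coatom lb.2 main.2.1 main.2.2 (p := 13) (k := 1) (j := 1) (by norm_num)
    main.1 (x := [6,1,2,3,2,4,5]) (St := [([6,1,2,3,2,4,5], [], [2], 21, 2), ([2], [], [3], 3, 2), ([2], [], [6], 3, 2), ([2], [], [1], 5, 2), ([6,1,2,3,2,4,5], [3], [4], 13, 2), ([4], [], [5], 3, 2)]) (by decide +kernel) N hN

theorem simple : IsSimpleGroup Grp := by
  have := prim.nontrivial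
  exact isSimple_of_contains hX normal

end Cfsg.H6.G24
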