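import Cfsg.Agent.H6.G24.Pres
import Cfsg.Agent.H6.G24.Chk0

set_option autoImplicit false
set_option maxRecDepth 100000
set_option Elab.async false

namespace Cfsg.H6.G24

theorem ptOK : PtOK img 416 LS EQS := ptOK_of_chk fun p h1 h2 => by
  rw [← ptU_eq]
  exact (allR_range p0 (by norm_num : 0 + 416 = 416)) p h1 h2

theorem hrep : repOK 7 1694364648734976 LS EQS D G24.R = true := by decide +kernel

theorem rep : Good (evR img 416 7) 1694364648734976 ∧ Rels (evR img 416 7) G24.R ∧
    IsAct (MonoidHom.id _) (evR img 416 7) img 416 7 := rep_sound ptOK hrep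

theorem iv0 {G : Type*} [Group G] {φ : G →* Equiv.Perm ℕ} {ev : ℕ → G} (h : IsAct φ ev img 416 7) :
    orb φ (gen ev Ws) 1 = Set.Ico 1 101 :=
  ivl_sound h (by decide +kernel) (allR_range q0_0 (by norm_num : 1 + 100 = 101))

theorem iv1 {G : Type*} [Group G] {φ : G →* Equiv.Perm ℕ} {ev : ℕ → G} (h : IsAct φ ev img 416 7) :
    orb φ (gen ev Ws) 101 = Set.Ico 101 416 :=
  ivl_sound h (by decide +kernel) (allR_range q1_0 (by norm_num : 101 + 315 = 416))


end Cfsg.H6.G24
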